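import Mathlib

/-!
# `Sp₄` in characteristic two: root elements and the graph endomorphism
-/

set_option autoImplicit false
set_option linter.unusedSectionVars false

namespace H98.S4

open Matrix

abbrev V4 (F : Type*) := Fin 4 → F
abbrev M4 (F : Type*) := Matrix (Fin 4) (Fin 4) F

variable {F : Type*} [Field F] [CharP F 2] {a b c d u v w : V4 F} {g h : M4 F}

/-- the alternating form -/
def om (u v : V4 F) : F := u 0 * v 3 + u 1 * v 2 + u 2 * v 1 + u 3 * v 0

theorem two_eq : (2 : F) = 0 := CharTwo.two_eq_zero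
theorem om_comm (u v : V4 F) : om u v = om v u := by unfold om; ring
@[simp] theorem om_self (u : V4 F) : om u u = 0 := by unfold om; grind
@[simp] theorem om_add_left (u v w : V4 F) : om (u + v) w = om u w + om v w := by simp [om]; ring
@[simp] theorem om_add_right (u v w : V4 F) : om w (u + v) = om w u + om w v := by simp [om]; ring
@[simp] theorem om_smul_left (s : F) (u v : V4 F) : om (s • u) v = s * om u v := by simp [om]; ring
@[simp] theorem om_smul_right (s : F) (u v : V4 F) : om u (s • v) = s * om u v := by simp [om]; ring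
@[simp] theorem om_zero_left (u : V4 F) : om 0 u = 0 := by simp [om]
@[simp] theorem om_zero_right (u : V4 F) : om u 0 = 0 := by simp [om]
@[simp] theorem vadd_self (u : V4 F) : u + u = 0 := by ext i; simp [CharTwo.add_self_eq_zero]

theorem eq_of_add (h : u + v = 0) : u = v := by
  rw [← add_zero u, ← vadd_self v, ← add_assoc, h, zero_add]

/-- the standard basis -/
def e (i : Fin 4) : V4 F := Pi.single i 1

theorem om_e (v : V4 F) (i : Fin 4) : om v (e i.rev) = v i := by
  fin_cases i <;> simp [om, e, Fin.rev]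

theorem eq_zero_of_om (h : ∀ v, om a v = 0) : a = 0 := funext fun i => (om_e a i).symm.trans (h _)

theorem exists_om (h : a ≠ 0) : ∃ d, om a d = 1 := by
  obtain ⟨v, hv⟩ := not_forall.1 (mt eq_zero_of_om h)
  exact ⟨(om a v)⁻¹ • v, by rw [om_smul_right, inv_mul_cancel₀ hv]⟩

theorem mulVec_e (g : M4 F) (j i : Fin 4) : (g *ᵥ e j) i = g i j := by simp [e]

theorem ext_mv (H : ∀ v, g *ᵥ v = h *ᵥ v) : g = h := by
  ext i j
  rw [← mulVec_e g, H, mulVec_e]

theorem mv_apply (g : M4 F) (v : V4 F) (i : Fin 4) :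
    (g *ᵥ v) i = g i 0 * v 0 + g i 1 * v 1 + g i 2 * v 2 + g i 3 * v 3 := by
  simp [mulVec, dotProduct, Fin.sum_univ_four]

/-- the adjoint -/
def adj (g : M4 F) : M4 F := of fun i j => g j.rev i.rev

theorem om_adj (g : M4 F) (u v : V4 F) : om (g *ᵥ u) v = om u (adj g *ᵥ v) := by
  simp [om, mv_apply, adj, Fin.rev]; ring

theorem adj_adj (g : M4 F) : adj (adj g) = g := by ext i j; simp [adj]

theorem trace_adj (g : M4 F) : (adj g).trace = g.trace := by
  simp [adj, trace, Fin.sum_univ_four, Fin.rev]; ring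

/-- symplectic matrices -/
def Sp (g : M4 F) : Prop := ∀ u v, om (g *ᵥ u) (g *ᵥ v) = om u v

theorem sp_one : Sp (1 : M4 F) := fun u v => by simp
theorem Sp.mul (hg : Sp g) (hh : Sp h) : Sp (g * h) := fun u v => by
  rw [← mulVec_mulVec, ← mulVec_mulVec, hg, hh]

theorem Sp.adj_mul (hg : Sp g) : adj g * g = 1 := ext_mv fun v => eq_of_add <| eq_zero_of_om fun u => by
  rw [om_add_left, om_comm, ← mulVec_mulVec, ← om_adj, hg, one_mulVec, om_comm, CharTwo.add_self_eq_zero]

theorem Sp.mul_adj (hg : Sp g) : g * adj g = 1 := mul_eq_one_comm.1 hg.adj_mul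
theorem Sp.adj_mv (hg : Sp g) (v : V4 F) : adj g *ᵥ (g *ᵥ v) = v := by
  rw [mulVec_mulVec, hg.adj_mul, one_mulVec]
theorem Sp.mv_adj (hg : Sp g) (v : V4 F) : g *ᵥ (adj g *ᵥ v) = v := by
  rw [mulVec_mulVec, hg.mul_adj, one_mulVec]
theorem Sp.adj (hg : Sp g) : Sp (adj g) := fun u v => by rw [← om_adj, hg.mv_adj]
theorem Sp.ne (hg : Sp g) (h : a ≠ 0) : g *ᵥ a ≠ 0 := fun e => h (by rw [← hg.adj_mv a, e, mulVec_zero])

/-- long root elements -/
def tv (a : V4 F) : M4 F := 1 + of fun i j => a i * a j.rev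
/-- short root elements -/
def sh (a b : V4 F) : M4 F := 1 + of fun i j => a i * b j.rev + b i * a j.rev

theorem tv_mv (a v : V4 F) : tv a *ᵥ v = v + om v a • a := by
  ext i; fin_cases i <;> simp [tv, om, mv_apply, Fin.rev, one_apply] <;> ring
theorem sh_mv (a b v : V4 F) : sh a b *ᵥ v = v + om v a • b + om v b • a := by
  ext i; fin_cases i <;> simp [sh, om, mv_apply, Fin.rev, one_apply] <;> ring

theorem sp_tv (a : V4 F) : Sp (tv a) := fun u v => by
  simp [tv_mv, om_comm a v]; grind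
theorem sp_sh (h : om a b = 0) : Sp (sh a b) := fun u v => by
  simp [sh_mv, om_comm a v, om_comm b v, om_comm b a, h]; grind

theorem tv_zero : tv (0 : V4 F) = 1 := ext_mv fun v => by simp [tv_mv]
theorem tv_inj (h : tv a = tv b) : a = b := by
  ext i
  have := congrFun (congrFun h i) i.rev
  simp only [tv, Matrix.add_apply, of_apply, Fin.rev_rev, add_right_inj] at this
  exact CharTwo.sq_injective (by simpa [sq] using this)
theorem tv_conj (hg : Sp g) (a : V4 F) : g * tv a = tv (g *ᵥ a) * g := ext_mv fun v => by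
  simp [← mulVec_mulVec, tv_mv, mulVec_add, mulVec_smul, hg v a]
theorem sh_conj (hg : Sp g) (a b : V4 F) : g * sh a b = sh (g *ᵥ a) (g *ᵥ b) * g := ext_mv fun v => by
  simp [← mulVec_mulVec, sh_mv, mulVec_add, mulVec_smul, hg v a, hg v b]
theorem tv_mul (h : om a b = 0) : tv a * tv b = tv (a + b) * sh (a + b) b := ext_mv fun v => by
  ext i
  simp [← mulVec_mulVec, tv_mv, sh_mv, h, om_comm b a]
  grind
theorem sh_eq (h : om a b = 0) : sh a b = tv a * tv b * tv (a + b) := ext_mv fun v => by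
  ext i
  simp [← mulVec_mulVec, tv_mv, sh_mv, h, om_comm b a]
  grind

/-- Plücker coordinates of a totally isotropic line -/
def pl (v u : V4 F) : V4 F :=
  ![v 0 * u 1 + v 1 * u 0, v 0 * u 2 + v 2 * u 0, v 1 * u 3 + v 3 * u 1, v 2 * u 3 + v 3 * u 2]

/-- the graph endomorphism -/
def st (g : M4 F) : M4 F :=
  of fun i j => ![pl (g *ᵥ e 0) (g *ᵥ e 1), pl (g *ᵥ e 0) (g *ᵥ e 2), pl (g *ᵥ e 1) (g *ᵥ e 3),
    pl (g *ᵥ e 2) (g *ᵥ e 3)] j i

theorem pl_smul_left (s : F) (a b : V4 F) : pl (s • a) b = s • pl a b := by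
  ext i; fin_cases i <;> simp [pl] <;> ring
theorem pl_comm (a b : V4 F) : pl a b = pl b a := by
  ext i; fin_cases i <;> simp [pl] <;> ring
theorem pl_smul_right (s : F) (a b : V4 F) : pl a (s • b) = s • pl a b := by
  rw [pl_comm, pl_smul_left, pl_comm]
theorem pl_add_right (a b c : V4 F) : pl a (b + c) = pl a b + pl a c := by
  ext i; fin_cases i <;> simp [pl] <;> ring
theorem pl_add_left (a b c : V4 F) : pl (b + c) a = pl b a + pl c a := by
  rw [pl_comm, pl_add_right, pl_comm a, pl_comm a]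
theorem pl_self (a : V4 F) : pl a a = 0 := by
  ext i; fin_cases i <;> simp [pl] <;> grind

theorem st_pl (hg : Sp g) (h : om v u = 0) : st g *ᵥ pl v u = pl (g *ᵥ v) (g *ᵥ u) := by
  have e01 := congrFun (congrFun hg.mul_adj 0) 2
  have e02 := congrFun (congrFun hg.mul_adj 0) 1
  have e13 := congrFun (congrFun hg.mul_adj 1) 0
  have e23 := congrFun (congrFun hg.mul_adj 2) 0
  simp [adj, mul_apply, Fin.sum_univ_four, Fin.rev] at e01 e02 e13 e23
  unfold om at h
  ext i; fin_cases i <;> simp [st, pl, mv_apply, e] <;> grind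

theorem om_pl (h1 : om a b = 0) (h2 : om c d = 0) :
    om (pl a b) (pl c d) = om a c * om b d + om a d * om b c := by
  unfold om at *
  simp [pl]
  grind

/-- the Frobenius map on vectors -/
def fr (a : V4 F) : V4 F := fun i => a i ^ 2

theorem pl_pl (h1 : om a b = 0) (h2 : om a c = 0) : pl (pl a b) (pl a c) = om b c • fr a := by
  unfold om at *
  ext i
  fin_cases i <;> simp [pl, fr] <;> grind

theorem dep_of_pl (ha : a ≠ 0) (h : om a c = 0) (h0 : pl a c = 0) : ∃ s : F, c = s • a := by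
  obtain ⟨d, hd⟩ := exists_om ha
  have p0 := congrFun h0 0
  have p1 := congrFun h0 1
  have p2 := congrFun h0 2
  have p3 := congrFun h0 3
  simp [pl] at p0 p1 p2 p3
  unfold om at h hd
  have p4 : a 0 * c 3 + a 3 * c 0 = 0 := pow_eq_zero_iff (two_ne_zero (α := ℕ)) |>.1 (by grind)
  refine ⟨om c d, ?_⟩
  ext i
  fin_cases i <;> simp [om] <;> grind

theorem exists_dual (h0 : pl a b ≠ 0) : ∃ d, om a d = 1 ∧ om b d = 0 := by
  have key : ∀ i j, a i * b j + a j * b i ≠ 0 → ∃ d, om a d = 1 ∧ om b d = 0 := fun i j hp =>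
    ⟨(a i * b j + a j * b i)⁻¹ • (b j • e i.rev + b i • e j.rev), by
      simp only [om_smul_right, om_add_right, om_e]; field_simp, by
      simp only [om_smul_right, om_add_right, om_e]; grind⟩
  obtain ⟨i, hi⟩ := Function.ne_iff.1 h0
  fin_cases i
  exacts [key 0 1 hi, key 0 2 hi, key 1 3 hi, key 2 3 hi]

/-- the matrix with given columns -/
def cols (a b c d : V4 F) : M4 F := of fun i j => ![a, b, c, d] j i

theorem cols_mv (a b c d v : V4 F) : cols a b c d *ᵥ v = v 0 • a + v 1 • b + v 2 • c + v 3 • d := by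
  ext i; simp [cols, mv_apply]; ring

theorem cols_e0 : cols a b c d *ᵥ e 0 = a := by rw [cols_mv]; simp [e]
theorem cols_e1 : cols a b c d *ᵥ e 1 = b := by rw [cols_mv]; simp [e]
theorem cols_e2 : cols a b c d *ᵥ e 2 = c := by rw [cols_mv]; simp [e]
theorem cols_e3 : cols a b c d *ᵥ e 3 = d := by rw [cols_mv]; simp [e]

theorem sp_cols (h1 : om a b = 0) (h2 : om a c = 0) (h3 : om a d = 1) (h4 : om b c = 1) (h5 : om b d = 0)
    (h6 : om c d = 0) : Sp (cols a b c d) := fun u v => by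
  simp only [cols_mv, om_add_left, om_add_right, om_smul_left, om_smul_right, om_self, om_comm b a, om_comm c a,
    om_comm d a, om_comm c b, om_comm d b, om_comm d c, h1, h2, h3, h4, h5, h6]
  unfold om; ring

theorem exists_perp (h : om a d = 1) :
    ∃ b c, om a b = 0 ∧ om a c = 0 ∧ om b c = 1 ∧ om b d = 0 ∧ om c d = 0 := by
  have key : ∀ u v, om u v + om u a * om v d + om u d * om v a ≠ 0 →
      ∃ b c, om a b = 0 ∧ om a c = 0 ∧ om b c = 1 ∧ om b d = 0 ∧ om c d = 0 := fun u v hp => by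
    refine ⟨(om u v + om u a * om v d + om u d * om v a)⁻¹ • (u + om u d • a + om u a • d),
      v + om v d • a + om v a • d, ?_, ?_, ?_, ?_, ?_⟩ <;>
    simp only [om_smul_right, om_add_right, om_smul_left, om_add_left, om_self, om_comm d a, h, om_comm a u,
      om_comm a v, om_comm d v] <;> grind
  by_cases h1 : om (e 0) (e 3) + om (e 0) a * om (e 3) d + om (e 0) d * om (e 3) a = 0
  · refine key (e 1) (e 2) fun h2 => ?_
    simp [om, e] at h h1 h2
    grind
  · exact key _ _ h1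

theorem exists_sp1 (ha : a ≠ 0) : ∃ B, Sp B ∧ B *ᵥ e 0 = a := by
  obtain ⟨d, hd⟩ := exists_om ha
  obtain ⟨b, c, h1, h2, h3, h4, h5⟩ := exists_perp hd
  exact ⟨_, sp_cols h1 h2 hd h3 h4 h5, cols_e0⟩

theorem exists_sp2 (h : om a b = 0) (h0 : pl a b ≠ 0) : ∃ B, Sp B ∧ B *ᵥ e 0 = a ∧ B *ᵥ e 1 = b := by
  obtain ⟨d, d1, d2⟩ := exists_dual h0
  obtain ⟨c, c1, c2⟩ := exists_dual (pl_comm a b ▸ h0)
  refine ⟨_, sp_cols (c := c + om c d • a) h ?_ d1 ?_ d2 ?_, cols_e0, cols_e1⟩ <;>
    simp [c1, c2, d1, om_comm b a, h, CharTwo.add_self_eq_zero]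

theorem ext_pl (H : ∀ u v, om u v = 0 → g *ᵥ pl u v = h *ᵥ pl u v) : g = h := by
  have e0 : pl (e 0) (e 1) = (e 0 : V4 F) := by ext i; fin_cases i <;> simp [pl, e]
  have e1 : pl (e 0) (e 2) = (e 1 : V4 F) := by ext i; fin_cases i <;> simp [pl, e]
  have e2 : pl (e 1) (e 3) = (e 2 : V4 F) := by ext i; fin_cases i <;> simp [pl, e]
  have e3 : pl (e 2) (e 3) = (e 3 : V4 F) := by ext i; fin_cases i <;> simp [pl, e]
  have : ∀ j, g *ᵥ e j = h *ᵥ e j := fun j => by
    fin_cases j
    exacts [e0 ▸ H _ _ (by simp [om, e]), e1 ▸ H _ _ (by simp [om, e]), e2 ▸ H _ _ (by simp [om, e]),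
      e3 ▸ H _ _ (by simp [om, e])]
  ext i j
  rw [← mulVec_e g, this, mulVec_e]

theorem st_one : st (1 : M4 F) = 1 := ext_pl fun u v h => by simp [st_pl sp_one h]
theorem st_mul (hg : Sp g) (hh : Sp h) : st (g * h) = st g * st h := ext_pl fun u v H => by
  rw [← mulVec_mulVec, st_pl (hg.mul hh) H, st_pl hh H, st_pl hg ((hh u v).trans H), mulVec_mulVec, mulVec_mulVec]

theorem st_sh (h : om a b = 0) : st (sh a b) = tv (pl a b) := ext_pl fun u v H => by
  rw [st_pl (sp_sh h) H, tv_mv, om_pl H h, sh_mv, sh_mv]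
  ext i
  unfold om at *
  fin_cases i <;> simp [pl] <;> grind

/-- the Frobenius map on matrices -/
def frM (g : M4 F) : M4 F := g.map (· ^ 2)

theorem frM_fr (g : M4 F) (v : V4 F) : frM g *ᵥ fr v = fr (g *ᵥ v) := by
  ext i; simp [frM, fr, mv_apply]; grind
theorem fr_inj (h : fr a = fr b) : a = b := funext fun i => CharTwo.sq_injective (congrFun h i)
theorem fr_smul (s : F) (a : V4 F) : fr (s • a) = s ^ 2 • fr a := by ext i; simp [fr]; ring
theorem om_fr (a b : V4 F) : om (fr a) (fr b) = om a b ^ 2 := by simp [fr, om]; grind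
theorem frM_inj (H : frM g = frM h) : g = h := by
  ext i j; exact CharTwo.sq_injective (congrFun (congrFun H i) j)
theorem frM_tv (a : V4 F) : frM (tv a) = tv (fr a) := by
  ext i j
  by_cases h : i = j <;> simp [frM, tv, fr, one_apply, h] <;> grind

variable [PerfectRing F 2]

theorem exists_sq (s : F) : ∃ r : F, r ^ 2 = s := (PerfectRing.bijective_frobenius (R := F) (p := 2)).2 s

theorem exists_fr (v : V4 F) : ∃ a, fr a = v := by
  choose r hr using fun i => exists_sq (v i)
  exact ⟨r, funext hr⟩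

theorem exists_pl (p : V4 F) : ∃ a b, om a b = 0 ∧ pl a b = p := by
  obtain ⟨s, hs⟩ := exists_sq (p 0 * p 3 + p 1 * p 2)
  by_cases h0 : p 0 = 0
  · by_cases h1 : p 1 = 0
    · by_cases h3 : p 3 = 0
      · refine ⟨![0, 1, 0, 0], ![0, 0, 0, p 2], by simp [om], ?_⟩
        ext i; fin_cases i <;> simp [pl, h0, h1, h3]
      · refine ⟨![0, p 2 / p 3, 1, 0], ![0, 0, 0, p 3], by simp [om], ?_⟩
        ext i; fin_cases i <;> simp [pl, h0, h1, h3]
    · refine ⟨![1, s / p 1, 0, p 3 / p 1], ![0, 0, p 1, s], by simp [om]; grind, ?_⟩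
      ext i; fin_cases i <;> simp [pl, h0, h1]
      grind
  · refine ⟨![1, 0, s / p 0, p 2 / p 0], ![0, p 0, p 1, s], by simp [om]; grind, ?_⟩
    ext i; fin_cases i <;> simp [pl, h0]
    grind

theorem Sp.st (hg : Sp g) : Sp (st g) := fun u v => by
  obtain ⟨a, b, h1, rfl⟩ := exists_pl u
  obtain ⟨c, d, h2, rfl⟩ := exists_pl v
  rw [st_pl hg h1, st_pl hg h2, om_pl h1 h2, om_pl ((hg _ _).trans h1) ((hg _ _).trans h2), hg, hg, hg, hg]

theorem st_st (hg : Sp g) : st (st g) = frM g := ext_mv fun v => by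
  obtain ⟨a, rfl⟩ := exists_fr v
  rw [frM_fr]
  by_cases ha : a = 0
  · have : fr (0 : V4 F) = 0 := by ext i; simp [fr]
    simp [ha, this]
  obtain ⟨d, hd⟩ := exists_om ha
  obtain ⟨b, c, h1, h2, h3, -, -⟩ := exists_perp hd
  have := pl_pl ((hg _ _).trans h1) ((hg _ _).trans h2)
  rw [hg, h3, one_smul, ← st_pl hg h1, ← st_pl hg h2, ← st_pl hg.st (by simp [om_pl h1 h2, h2, om_comm b a, h1]),
    pl_pl h1 h2, h3, one_smul] at this
  exact this

theorem st_inj (hg : Sp g) (hh : Sp h) (H : st g = st h) : g = h :=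
  frM_inj (by rw [← st_st hg, H, st_st hh])

end H98.S4
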