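import Mathlib
import Cfsg.Agent.Lib.Sp4e.Basic

/-!
# Subgroups of `Sp₄` in characteristic two: flags and involutions
-/

set_option autoImplicit false
set_option linter.unusedSectionVars false

namespace H98.S4

open Matrix Subgroup
open scoped commutatorElement

variable {F : Type*} [Field F] [CharP F 2] {a b c d u v w : V4 F} {g B : M4 F}
  {X : Type*} [Group X] {ρ : X →* M4 F} {x y z : X}

/-- faithful symplectic representations -/
structure R4 (ρ : X →* M4 F) : Prop where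
  inj : Function.Injective ρ
  sp : ∀ x, Sp (ρ x)

/-- change of basis -/
def cj (hB : Sp B) (ρ : X →* M4 F) : X →* M4 F where
  toFun x := adj B * ρ x * B
  map_one' := by simp [hB.adj_mul]
  map_mul' x y := by
    rw [map_mul, mul_assoc (adj B * ρ x), ← mul_assoc B, ← mul_assoc B, hB.mul_adj, one_mul]
    simp only [mul_assoc]

theorem cj_apply (hB : Sp B) (x : X) : cj hB ρ x = adj B * ρ x * B := rfl
theorem cj_mv (hB : Sp B) (x : X) (v : V4 F) : B *ᵥ (cj hB ρ x *ᵥ v) = ρ x *ᵥ (B *ᵥ v) := by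
  rw [cj_apply, ← mulVec_mulVec, ← mulVec_mulVec, hB.mv_adj]
theorem cj_eq (hB : Sp B) {m m' : M4 F} (e : B * m = m' * B) : cj hB ρ x = m ↔ ρ x = m' := by
  have : adj B * m' * B = m := by rw [mul_assoc, ← e, ← mul_assoc, hB.adj_mul, one_mul]
  refine ⟨fun h => ext_mv fun v => ?_, fun h => by rw [cj_apply, h, this]⟩
  rw [← hB.mv_adj v, ← cj_mv hB, h, mulVec_mulVec, e, ← mulVec_mulVec]
theorem cj_trace (hB : Sp B) (x : X) : (cj hB ρ x).trace = (ρ x).trace := by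
  rw [cj_apply, trace_mul_comm, ← mul_assoc, hB.mul_adj, one_mul]

theorem R4.cj (h : R4 ρ) (hB : Sp B) : R4 (cj hB ρ) where
  inj := (injective_iff_map_eq_one _).2 fun x e => h.inj (by rw [(cj_eq hB (m' := 1) (by simp)).1 e, map_one])
  sp x := (hB.adj.mul (h.sp x)).mul hB

/-- the graph twist -/
def R4.gam (h : R4 ρ) : X →* M4 F where
  toFun x := st (ρ x)
  map_one' := by rw [map_one, st_one]
  map_mul' x y := by rw [map_mul, st_mul (h.sp x) (h.sp y)]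

theorem R4.gam_apply (h : R4 ρ) (x : X) : h.gam x = st (ρ x) := rfl

theorem mv_mul (ρ : X →* M4 F) (x y : X) (v : V4 F) : ρ (x * y) *ᵥ v = ρ x *ᵥ (ρ y *ᵥ v) := by
  rw [map_mul, mulVec_mulVec]
theorem mv_inv (ρ : X →* M4 F) (x : X) (v : V4 F) : ρ x⁻¹ *ᵥ (ρ x *ᵥ v) = v := by
  rw [← mv_mul, inv_mul_cancel, map_one, one_mulVec]
theorem mv_inv' (ρ : X →* M4 F) (x : X) (v : V4 F) : ρ x *ᵥ (ρ x⁻¹ *ᵥ v) = v := by
  rw [← mv_mul, mul_inv_cancel, map_one, one_mulVec]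
theorem R4.om_mv (h : R4 ρ) (x : X) (u v : V4 F) : om (ρ x *ᵥ u) v = om u (ρ x⁻¹ *ᵥ v) := by
  rw [← h.sp x u, mv_inv']
theorem R4.inv (h : R4 ρ) (x : X) : ρ x⁻¹ = adj (ρ x) := ext_mv fun v => by
  conv_lhs => rw [← (h.sp x).mv_adj v, mv_inv]
theorem R4.conj_tv (h : R4 ρ) (e : ρ y = tv a) (x : X) : ρ (x * y * x⁻¹) = tv (ρ x *ᵥ a) := by
  rw [map_mul, map_mul, e, tv_conj (h.sp x), mul_assoc, ← map_mul, mul_inv_cancel, map_one, mul_one]

/-- the long root elements in the group -/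
def TL (ρ : X →* M4 F) (a : V4 F) : Prop := ∃ x, ρ x = tv a
/-- a long root group of order more than two -/
def BigL (ρ : X →* M4 F) : Prop := ∃ (a : V4 F) (l : F), a ≠ 0 ∧ l ≠ 0 ∧ l ≠ 1 ∧ TL ρ a ∧ TL ρ (l • a)
/-- a short root group of order more than two -/
def BigS (ρ : X →* M4 F) : Prop := ∃ (a b : V4 F) (l : F), om a b = 0 ∧ pl a b ≠ 0 ∧ l ≠ 0 ∧ l ≠ 1 ∧
  (∃ x, ρ x = sh a b) ∧ ∃ x, ρ x = sh (l • a) b
/-- no invariant point -/
def NoPt (ρ : X →* M4 F) : Prop := ∀ a : V4 F, (∀ x, ∃ s : F, ρ x *ᵥ a = s • a) → a = 0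

theorem TL.mv (h : R4 ρ) (t : TL ρ a) (x : X) : TL ρ (ρ x *ᵥ a) := t.elim fun _ e => ⟨_, h.conj_tv e x⟩
theorem tl_cj (hB : Sp B) : TL (cj hB ρ) a ↔ TL ρ (B *ᵥ a) := exists_congr fun _ => cj_eq hB (tv_conj hB a)
theorem BigL.of_cj (hB : Sp B) (h : BigL (cj hB ρ)) : BigL ρ := by
  obtain ⟨a, l, h1, h2, h3, h4, h5⟩ := h
  exact ⟨_, l, hB.ne h1, h2, h3, (tl_cj hB).1 h4, mulVec_smul B l a ▸ (tl_cj hB).1 h5⟩
theorem NoPt.cj (h : NoPt ρ) (hB : Sp B) : NoPt (cj hB ρ) := fun a H => by_contra fun ha => hB.ne ha <|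
  h _ fun x => (H x).imp fun s e => by rw [← cj_mv hB, e, mulVec_smul]

/-- unitriangular symplectic matrices -/
def U (t u b c : F) : M4 F := !![1, t, b, c; 0, 1, u, b + t * u; 0, 0, 1, t; 0, 0, 0, 1]

theorem U_mul (t u b c t' u' b' c' : F) : U t u b c * U t' u' b' c' =
    U (t + t') (u + u') (b + b' + t * u') (c + c' + t * (b' + t' * u') + b * t') := by
  ext i j
  fin_cases i <;> fin_cases j <;> simp [U, mul_apply, Fin.sum_univ_four] <;> grind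

theorem U_zero : U (0 : F) 0 0 0 = 1 := by
  ext i j
  fin_cases i <;> fin_cases j <;> simp [U]

theorem U_inj {t u b c t' u' b' c' : F} : U t u b c = U t' u' b' c' ↔ t = t' ∧ u = u' ∧ b = b' ∧ c = c' :=
  ⟨fun h => ⟨congrFun (congrFun h 0) 1, congrFun (congrFun h 1) 2, congrFun (congrFun h 0) 2,
    congrFun (congrFun h 0) 3⟩, by rintro ⟨rfl, rfl, rfl, rfl⟩; rfl⟩

theorem U_sq (t u b c : F) : U t u b c * U t u b c = U 0 0 (t * u) (t ^ 2 * u) := by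
  rw [U_mul, U_inj]; grind

theorem U_trace (t u b c : F) : (U t u b c).trace = 0 := by
  simp [U, trace, Fin.sum_univ_four]; grind

theorem eq_U (hg : Sp g) {t : F} (h0 : g *ᵥ e 0 = e 0) (h1 : g *ᵥ e 1 = e 1 + t • e 0) :
    g = U t (g 1 2) (g 0 2) (g 0 3) := by
  have a0 := fun i => (mulVec_e g 0 i).symm.trans (congrFun h0 i)
  have a1 := fun i => (mulVec_e g 1 i).symm.trans (congrFun h1 i)
  have r := fun i j => hg (e i) (e j)
  simp only [om, mulVec_e] at r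
  have r02 := r 0 2
  have r03 := r 0 3
  have r12 := r 1 2
  have r13 := r 1 3
  have r23 := r 2 3
  simp [a0, a1, e] at r02 r03 r12 r13 r23
  ext i j
  fin_cases i <;> fin_cases j <;> simp [U, a0, a1, e] <;> grind

theorem exists_fix [Finite F] {S : Subgroup X} (hS : IsPGroup 2 S) (W : Submodule F (V4 F))
    (hW : ∀ x ∈ S, ∀ w ∈ W, ρ x *ᵥ w ∈ W) (ha : a ∈ W) (h0 : a ≠ 0) :
    ∃ w ∈ W, w ≠ 0 ∧ ∀ x ∈ S, ρ x *ᵥ w = w := by
  letI : MulAction S W :=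
    { smul := fun x w => ⟨ρ x *ᵥ w, hW _ x.2 _ w.2⟩
      one_smul := fun w => Subtype.ext (show ρ (1 : X) *ᵥ _ = _ by rw [map_one, one_mulVec])
      mul_smul := fun x y w => Subtype.ext (mv_mul ρ _ _ _) }
  have h2 : addOrderOf (⟨a, ha⟩ : W) = 2 := addOrderOf_eq_prime
    (Subtype.ext ((two_nsmul a).trans (vadd_self a))) fun e => h0 (congrArg Subtype.val e)
  obtain ⟨w, h1, h3⟩ := hS.exists_fixed_point_of_prime_dvd_card_of_fixed_point W
    (h2 ▸ addOrderOf_dvd_natCard _) (a := 0) fun x => Subtype.ext (mulVec_zero (ρ x))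
  exact ⟨w, w.2, fun e => h3 (Subtype.ext e.symm), fun x hx => congrArg Subtype.val (h1 ⟨x, hx⟩)⟩

theorem zp_two {n : ℕ} (hz : z ^ 2 ^ n = 1) : IsPGroup 2 (zpowers z) := by
  rintro ⟨_, k, rfl⟩
  exact ⟨n, Subtype.ext (show (z ^ k) ^ 2 ^ n = 1 by
    rw [← zpow_natCast, ← _root_.zpow_mul, mul_comm, _root_.zpow_mul, zpow_natCast, hz, _root_.one_zpow])⟩

theorem ne_left (h : pl a b ≠ 0) : a ≠ 0 := fun e => h (by
  ext i; fin_cases i <;> simp [pl, e])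

theorem Sp.flag (hg : Sp g) (hB : Sp B) {s : F} (h0 : g *ᵥ (B *ᵥ e 0) = B *ᵥ e 0)
    (h1 : g *ᵥ (B *ᵥ e 1) = B *ᵥ e 1 + s • B *ᵥ e 0) : ∃ t u b c, S4.adj B * g * B = U t u b c :=
  ⟨s, _, _, _, eq_U ((hB.adj.mul hg).mul hB) (by rw [← mulVec_mulVec, ← mulVec_mulVec, h0, hB.adj_mv])
    (by rw [← mulVec_mulVec, ← mulVec_mulVec, h1, mulVec_add, mulVec_smul, hB.adj_mv, hB.adj_mv])⟩

theorem R4.exists_U [Finite F] (h : R4 ρ) {S : Subgroup X} (hS : IsPGroup 2 S) :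
    ∃ (B : M4 F) (hB : Sp B), ∀ x ∈ S, ∃ t u b c, S4.cj hB ρ x = U t u b c := by
  have e0 : (e 0 : V4 F) ≠ 0 := fun h => by simpa [e] using congrFun h 0
  obtain ⟨a, -, ha, fa⟩ := exists_fix (ρ := ρ) hS ⊤ (fun _ _ _ _ => trivial) (a := e 0) trivial e0
  let W : Submodule F (V4 F) :=
    { carrier := {p | ∃ b, om a b = 0 ∧ pl a b = p}
      add_mem' := by
        rintro _ _ ⟨b, h1, rfl⟩ ⟨c, h2, rfl⟩
        exact ⟨b + c, by simp [h1, h2], pl_add_right _ _ _⟩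
      zero_mem' := ⟨a, om_self a, pl_self a⟩
      smul_mem' := by
        rintro s _ ⟨b, h1, rfl⟩
        exact ⟨s • b, by simp [h1], pl_smul_right _ _ _⟩ }
  obtain ⟨d, hd⟩ := exists_om ha
  obtain ⟨b, c, h1, h2, h3, -, -⟩ := exists_perp hd
  have hp : pl a b ≠ 0 := fun e => by
    obtain ⟨s, rfl⟩ := dep_of_pl ha h1 e
    simp [h2] at h3
  have key : ∀ x ∈ S, ∀ b, om a b = 0 → om a (ρ x *ᵥ b) = 0 ∧ h.gam x *ᵥ pl a b = pl a (ρ x *ᵥ b) :=
    fun x hx b hb => ⟨by rw [← fa x hx, h.sp, hb], by rw [h.gam_apply, st_pl (h.sp x) hb, fa x hx]⟩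
  obtain ⟨_, ⟨b, hb, rfl⟩, h4, h5⟩ := exists_fix (ρ := h.gam) hS W (by
    rintro x hx _ ⟨b, hb, rfl⟩
    exact ⟨_, (key x hx b hb).1, (key x hx b hb).2.symm⟩) ⟨b, h1, rfl⟩ hp
  obtain ⟨B, hB, rfl, rfl⟩ := exists_sp2 hb h4
  refine ⟨B, hB, fun x hx => ?_⟩
  obtain ⟨s, hs⟩ := dep_of_pl ha (c := ρ x *ᵥ (B *ᵥ e 1) + B *ᵥ e 1) (by rw [om_add_right, hb, (key x hx _ hb).1, add_zero])
    (by rw [pl_add_right, ← (key x hx _ hb).2, h5 x hx, vadd_self])
  exact (h.sp x).flag hB (fa x hx) (by rw [← hs, add_comm, add_assoc, vadd_self, add_zero])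

section two
variable [Finite F] (h : R4 ρ) {S : Subgroup X} (hS : IsPGroup 2 S)
include h hS

theorem R4.comm_sq (hx : x ∈ S) (hy : y ∈ S) : Commute (x * x) y := by
  obtain ⟨B, hB, H⟩ := h.exists_U hS
  obtain ⟨t, u, b, c, e1⟩ := H x hx
  obtain ⟨t', u', b', c', e2⟩ := H y hy
  refine (h.cj hB).inj ?_
  simp only [map_mul, e1, e2, U_mul, U_inj]
  grind

theorem R4.comm_comm (hx : x ∈ S) (hy : y ∈ S) (hz : z ∈ S) : Commute ⁅x, y⁆ z := by
  have : ⁅x, y⁆ = x * x * ((x⁻¹ * y) * (x⁻¹ * y)) * (y⁻¹ * y⁻¹) := by group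
  rw [this]
  exact ((h.comm_sq hS hx hz).mul_left (h.comm_sq hS (mul_mem (inv_mem hx) hy) hz)).mul_left
    (h.comm_sq hS (inv_mem hy) hz)

theorem R4.sq_eq (hx : x ∈ S) (hy : y ∈ S) (hc : Commute x y) (h1 : x * x ≠ 1) (h2 : y * y ≠ 1) :
    x * x = y * y := by
  obtain ⟨B, hB, H⟩ := h.exists_U hS
  obtain ⟨t, u, b, c, e1⟩ := H x hx
  obtain ⟨t', u', b', c', e2⟩ := H y hy
  have k := congrArg (S4.cj hB ρ) hc.eq
  have k1 := (h.cj hB).inj.ne h1
  have k2 := (h.cj hB).inj.ne h2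
  refine (h.cj hB).inj ?_
  simp only [map_mul, map_one, e1, e2, U_mul, ← U_zero (F := F), U_inj, Ne] at k k1 k2 ⊢
  have : t * u ≠ 0 := by grind
  have : t' * u' ≠ 0 := by grind
  grind

end two

/-- the centralizer of `z` has exponent four -/
def Two (z : X) : Prop := ∀ g, Commute g z → g ^ 4 = 1

theorem U_four {t u b c : F} (e : adj B * g * B = U t u b c) (hB : Sp B) : g ^ 4 = 1 := by
  have : g = B * U t u b c * adj B := by
    rw [← e, ← mul_assoc, ← mul_assoc, hB.mul_adj, one_mul, mul_assoc, hB.mul_adj, mul_one]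
  have k : ∀ m n : M4 F, B * m * adj B * (B * n * adj B) = B * (m * n) * adj B := fun m n => by
    rw [mul_assoc (B * m), ← mul_assoc (adj B), ← mul_assoc (adj B), hB.adj_mul, one_mul]
    simp only [mul_assoc]
  rw [show g ^ 4 = g * g * (g * g) by noncomm_ring, this, k, k, U_sq, U_sq]
  simp [U_zero, hB.mul_adj]

theorem R4.two (h : R4 ρ) (hab : om a b = 0) (hp : pl a b ≠ 0) (e : ρ z = tv a * sh a b) : Two z := by
  intro x hx
  have k : tv (ρ x *ᵥ a) * sh (ρ x *ᵥ a) (ρ x *ᵥ b) = tv a * sh a b := by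
    have := congrArg ρ hx.eq
    rw [map_mul, map_mul, e, ← mul_assoc, tv_conj (h.sp x), mul_assoc, sh_conj (h.sp x), ← mul_assoc] at this
    rw [← mul_one (_ * _), ← (h.sp x).mul_adj, ← mul_assoc, this, mul_assoc _ (ρ x), (h.sp x).mul_adj, mul_one]
  have q : ∀ {a b : V4 F}, om a b = 0 → ∀ v, (tv a * sh a b) *ᵥ v = v + om v a • b + (om v b + om v a) • a :=
    fun {a b} h v => by
      ext i
      simp [← mulVec_mulVec, tv_mv, sh_mv, h, om_comm b a]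
      ring
  have k' := fun v => (q ((h.sp x a b).trans hab) v).symm.trans ((congrArg (· *ᵥ v) k).trans (q hab v))
  have k1 : ρ x *ᵥ a = a := eq_of_add <| eq_zero_of_om fun v => by
    have := congrArg (om v) (k' v)
    simp only [om_add_right, om_self, om_smul_right] at this
    rw [om_comm, om_add_right]
    exact pow_eq_zero_iff (two_ne_zero (α := ℕ)) |>.1 (by grind)
  obtain ⟨d, hd⟩ := exists_om (ne_left hp)
  have k2 := k' d
  rw [k1, om_comm d a, hd] at k2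
  obtain ⟨B, hB, rfl, rfl⟩ := exists_sp2 hab hp
  obtain ⟨t, u, b, c, k3⟩ := (h.sp x).flag hB k1 (s := om d (ρ x *ᵥ B *ᵥ S4.e 1) + om d (B *ᵥ S4.e 1)) (by
    ext i
    have := congrFun k2 i
    simp only [Pi.add_apply, Pi.smul_apply, smul_eq_mul] at this ⊢
    grind)
  exact h.inj (by rw [map_pow, map_one, U_four k3 hB])

variable [PerfectRing F 2]

theorem R4.gam_r4 (h : R4 ρ) : R4 h.gam where
  inj _ _ e := h.inj (st_inj (h.sp _) (h.sp _) e)
  sp x := (h.sp x).st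

theorem R4.gam_gam (h : R4 ρ) (x : X) : h.gam_r4.gam x = frM (ρ x) := st_st (h.sp x)

theorem R4.gam_eq (h : R4 ρ) (hab : om a b = 0) : h.gam x = tv (pl a b) ↔ ρ x = sh a b :=
  ⟨fun e => st_inj (h.sp x) (sp_sh hab) (e.trans (st_sh hab).symm), fun e => by rw [h.gam_apply, e, st_sh hab]⟩

theorem R4.bigL_gam (h : R4 ρ) : BigL h.gam ↔ BigS ρ := by
  constructor
  · rintro ⟨p, l, h1, h2, h3, ⟨x, h4⟩, y, h5⟩
    obtain ⟨a, b, hab, rfl⟩ := exists_pl p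
    exact ⟨a, b, l, hab, h1, h2, h3, ⟨x, (h.gam_eq hab).1 h4⟩, y,
      (h.gam_eq (by simp [hab])).1 (by rw [h5, pl_smul_left])⟩
  · rintro ⟨a, b, l, hab, h1, h2, h3, ⟨x, h4⟩, y, h5⟩
    exact ⟨_, l, h1, h2, h3, ⟨x, (h.gam_eq hab).2 h4⟩, y, by
      rw [← pl_smul_left]; exact (h.gam_eq (by simp [hab])).2 h5⟩

theorem R4.bigL_gam_gam (h : R4 ρ) (H : BigL h.gam_r4.gam) : BigL ρ := by
  obtain ⟨p, l, h1, h2, h3, ⟨x, h4⟩, y, h5⟩ := H
  obtain ⟨a, rfl⟩ := exists_fr p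
  obtain ⟨l, rfl⟩ := exists_sq l
  rw [h.gam_gam] at h4 h5
  refine ⟨a, l, ?_, ?_, ?_, ⟨x, frM_inj (h4.trans (frM_tv a).symm)⟩, y, frM_inj (by rw [h5, frM_tv, fr_smul])⟩
  · rintro rfl; exact h1 (by ext i; simp [fr])
  · rintro rfl; simp at h2
  · rintro rfl; simp at h3

theorem NoPt.gam_gam (h : R4 ρ) (H : NoPt ρ) : NoPt h.gam_r4.gam := fun p k => by
  obtain ⟨a, rfl⟩ := exists_fr p
  rw [H a fun x => ?_]
  · ext i; simp [fr]
  obtain ⟨s, hs⟩ := k x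
  obtain ⟨s, rfl⟩ := exists_sq s
  exact ⟨s, fr_inj (by rw [← frM_fr, ← h.gam_gam, hs, fr_smul])⟩

theorem BigS.of_cj (hB : Sp B) (h : BigS (cj hB ρ)) : BigS ρ := by
  obtain ⟨a, b, l, h0, h1, h2, h3, ⟨x, h4⟩, y, h5⟩ := h
  exact ⟨B *ᵥ a, B *ᵥ b, l, (hB a b).trans h0, st_pl hB h0 ▸ hB.st.ne h1, h2, h3,
    ⟨x, (cj_eq hB (sh_conj hB _ _)).1 h4⟩, y, mulVec_smul B l a ▸ (cj_eq hB (sh_conj hB _ _)).1 h5⟩

theorem U_cases {t u b c : F} (h : t * u = 0) : (∃ a, U t u b c = tv a) ∨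
    (∃ a a', om a a' = 0 ∧ U t u b c = sh a a') ∨
      ∃ a a', om a a' = 0 ∧ pl a a' ≠ 0 ∧ U t u b c = tv a * sh a a' := by
  obtain ⟨c, rfl⟩ := exists_sq c
  obtain ⟨u, rfl⟩ := exists_sq u
  by_cases hc : c = 0
  · by_cases hu : u = 0
    · refine .inr (.inl ⟨![1, 0, 0, 0], ![0, b, t, 0], by simp [om], ?_⟩)
      ext i j
      fin_cases i <;> fin_cases j <;> simp [U, sh, hc, hu, Fin.rev]
    · have ht : t = 0 := by grind
      by_cases hb : b = 0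
      · refine .inl ⟨![0, u, 0, 0], ?_⟩
        ext i j
        fin_cases i <;> fin_cases j <;> simp [U, tv, hc, hb, ht, Fin.rev, sq]
      · refine .inr (.inr ⟨![0, u, 0, 0], ![b / u, 0, 0, 0], by simp [om], fun e => ?_, ?_⟩)
        · simpa [pl, hu, hb] using congrFun e 0
        · ext i j
          fin_cases i <;> fin_cases j <;>
            simp [U, tv, sh, hc, ht, Fin.rev, sq, mul_apply, Fin.sum_univ_four, one_apply] <;> grind
  · by_cases hk : t = 0 ∧ b = c * u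
    · refine .inl ⟨![c, u, 0, 0], ?_⟩
      ext i j
      fin_cases i <;> fin_cases j <;> simp [U, tv, hk.1, hk.2, Fin.rev, sq, mul_comm]
    · have hu : t * u = 0 := by grind
      refine .inr (.inr ⟨![c, u, 0, 0], ![0, (b + c * u) / c, t / c, 0], by simp [om]; grind, fun e => hk ?_, ?_⟩)
      · have e0 := congrFun e 0
        have e1 := congrFun e 1
        simp [pl, hc] at e0 e1
        grind
      · ext i j
        fin_cases i <;> fin_cases j <;>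
          simp [U, tv, sh, Fin.rev, sq, mul_apply, Fin.sum_univ_four, one_apply] <;> grind

variable [Finite F]

theorem R4.tri (h : R4 ρ) (hz : z * z = 1) : (∃ a, ρ z = tv a) ∨ (∃ a, h.gam z = tv a) ∨ Two z := by
  obtain ⟨B, hB, H⟩ := h.exists_U (zp_two (n := 1) (by rw [pow_one, sq, hz]))
  obtain ⟨t, u, b, c, e⟩ := H z (mem_zpowers z)
  have k := congrArg (S4.cj hB ρ) hz
  rw [map_mul, map_one, e, U_sq, ← U_zero, U_inj] at k
  rcases U_cases (b := b) (c := c) k.2.2.1 with ⟨a, k⟩ | ⟨a, a', h1, k⟩ | ⟨a, a', h1, h2, k⟩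
  · exact .inl ⟨_, (cj_eq hB (tv_conj hB a)).1 (e.trans k)⟩
  · exact .inr (.inl ⟨_, (h.gam_eq ((hB a a').trans h1)).2 ((cj_eq hB (sh_conj hB a a')).1 (e.trans k))⟩)
  · exact .inr (.inr ((h.cj hB).two h1 h2 (e.trans k)))

theorem R4.two_sq (h : R4 ρ) {S : Subgroup X} (hS : IsPGroup 2 S) (hx : x ∈ S) (h1 : x * x ≠ 1) :
    Two (x * x) := by
  obtain ⟨B, hB, H⟩ := h.exists_U hS
  obtain ⟨t, u, b, c, e⟩ := H x hx
  have k1 := (h.cj hB).inj.ne h1
  rw [map_mul, map_one, e, U_sq, ← U_zero, Ne, U_inj] at k1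
  obtain ⟨u, rfl⟩ := exists_sq u
  have : t * u ≠ 0 := by grind
  refine (h.cj hB).two (a := ![t * u, 0, 0, 0]) (b := ![0, u, 0, 0]) (by simp [om]) (fun e => ?_) ?_
  · have := congrFun e 0
    simp [pl] at this
    grind
  · rw [map_mul, e, U_sq]
    ext i j
    fin_cases i <;> fin_cases j <;>
      simp [U, tv, sh, Fin.rev, sq, mul_apply, Fin.sum_univ_four, one_apply] <;> grind

theorem R4.two_ll (h : R4 ρ) (hb : ¬ BigL ρ) (e1 : ρ x = tv a) (e2 : ρ y = tv b) (x1 : x ≠ 1) (y1 : y ≠ 1)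
    (hne : x ≠ y) (c : Commute x y) : Two (x * y) := by
  have a0 : a ≠ 0 := fun e => x1 (h.inj (by rw [e1, e, tv_zero, map_one]))
  have b0 : b ≠ 0 := fun e => y1 (h.inj (by rw [e2, e, tv_zero, map_one]))
  have k : ρ x *ᵥ b = b := tv_inj (by rw [← h.conj_tv e2, c.eq, mul_inv_cancel_right, e2])
  rw [e1, tv_mv, add_eq_left, smul_eq_zero_iff_left a0, om_comm] at k
  refine h.two (a := a + b) (b := b) (by simp [k]) (fun e => hb ?_) (by rw [map_mul, e1, e2, tv_mul k])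
  rw [pl_add_left, pl_self, add_zero] at e
  obtain ⟨s, rfl⟩ := dep_of_pl a0 k e
  refine ⟨a, s, a0, ?_, ?_, ⟨x, e1⟩, y, e2⟩
  · rintro rfl; simp at b0
  · rintro rfl; exact hne (h.inj (by rw [e1, e2, one_smul]))

theorem R4.two_four (h : R4 ρ) (h1 : ¬ BigL ρ) (h2 : ¬ BigL h.gam) (x2 : x * x = 1) (y2 : y * y = 1)
    (x1 : x ≠ 1) (y1 : y ≠ 1) (hne : x ≠ y) (c : Commute x y) : Two x ∨ Two y ∨ Two (x * y) := by
  have z2 : x * y * (x * y) = 1 := by rw [mul_assoc, ← mul_assoc y, ← c.eq, mul_assoc, y2, mul_one, x2]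
  have z1 : x * y ≠ 1 := fun e => hne (by rw [← mul_one x, ← y2, ← mul_assoc, e, one_mul])
  have n1 : x ≠ x * y := by simpa using y1
  have n2 : x * y ≠ y := by simpa using x1
  have q1 : x * (x * y) = y := by rw [← mul_assoc, x2, one_mul]
  have q2 : x * y * y = x := by rw [mul_assoc, y2, mul_one]
  have c1 : Commute x (x * y) := (Commute.refl x).mul_right c
  have c2 : Commute (x * y) y := c.mul_left (Commute.refl y)
  have h' := h.gam_r4
  rcases h.tri x2 with ⟨a, ea⟩ | ⟨a, ea⟩ | k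
  · rcases h.tri y2 with ⟨b, eb⟩ | ⟨b, eb⟩ | k
    · exact .inr (.inr (h.two_ll h1 ea eb x1 y1 hne c))
    · rcases h.tri z2 with ⟨d, ed⟩ | ⟨d, ed⟩ | k
      · exact .inr (.inl (q1 ▸ h.two_ll h1 ea ed x1 z1 n1 c1))
      · exact .inl (q2 ▸ h'.two_ll h2 ed eb z1 y1 n2 c2)
      · exact .inr (.inr k)
    · exact .inr (.inl k)
  · rcases h.tri y2 with ⟨b, eb⟩ | ⟨b, eb⟩ | k
    · rcases h.tri z2 with ⟨d, ed⟩ | ⟨d, ed⟩ | k
      · exact .inl (q2 ▸ h.two_ll h1 ed eb z1 y1 n2 c2)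
      · exact .inr (.inl (q1 ▸ h'.two_ll h2 ea ed x1 z1 n1 c1))
      · exact .inr (.inr k)
    · exact .inr (.inr (h'.two_ll h2 ea eb x1 y1 hne c))
    · exact .inr (.inl k)
  · exact .inl k

end H98.S4
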