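import Mathlib
import Cfsg.Agent.Lib.Sp4e.Rep
import Cfsg.Agent.Lib.Dim3.Dick

/-!
# Simple subgroups of `Sp₄(2^n)` with a long root group of order more than two
-/

set_option autoImplicit false
set_option linter.unusedSectionVars false

namespace H98.S4

open Matrix MatrixGroups Subgroup H98.D3

variable {F : Type*} [Field F] [CharP F 2] {a b c d u v w : V4 F} {g B : M4 F}
  {X : Type*} [Group X] {ρ : X →* M4 F} {x y z : X}

/-- closed sets of centres of transvections -/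
structure YS (Y : V4 F → Prop) (k : Subfield F) : Prop where
  smul : ∀ s ∈ k, ∀ y, Y y → Y (s • y)
  mem : ∀ y y', Y y → Y y' → om y y' ∈ k
  add : ∀ y y', Y y → Y y' → om y y' ≠ 0 → Y (y + y')
  big : ∃ s ∈ k, s ≠ 0 ∧ s ≠ 1
  span : ∀ w, (∀ y, Y y → om w y = 0) → w = 0

namespace YS
variable {Y : V4 F → Prop} {k : Subfield F} (h : YS Y k)
include h

theorem plane (hu : Y u) (hv : Y v) (h0 : om u v ≠ 0) {s t : F} (hs : s ∈ k) (ht : t ∈ k) :
    Y (s • u + t • v) := by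
  by_cases h1 : s = 0
  · simpa [h1] using h.smul t ht v hv
  by_cases h2 : t = 0
  · simpa [h2] using h.smul s hs u hu
  exact h.add _ _ (h.smul s hs u hu) (h.smul t ht v hv) (by simp [h0, h1, h2])

theorem all (ha : Y a) (hc : Y c) (hac : om a c = 1) (hb : Y b) (h1 : b + om b c • a + om b a • c ≠ 0)
    (h2 : ¬ (om b a = 0 ∧ om b c = 0)) : ∃ B, Sp B ∧ ∀ v : V4 F, (∀ i, v i ∈ k) → Y (B *ᵥ v) := by
  obtain ⟨β, hβ⟩ : ∃ β, β = om b c := ⟨_, rfl⟩
  obtain ⟨γ, hγ⟩ : ∃ γ, γ = om b a := ⟨_, rfl⟩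
  have kβ : β ∈ k := hβ ▸ h.mem _ _ hb hc
  have kγ : γ ∈ k := hγ ▸ h.mem _ _ hb ha
  rw [← hβ, ← hγ] at h1 h2
  obtain ⟨r, hr⟩ : ∃ r, r = b + β • a + γ • c := ⟨_, rfl⟩
  have hca : om c a = 1 := om_comm a c ▸ hac
  have ra : om r a = 0 := by simp [hr, hca, ← hγ, CharTwo.add_self_eq_zero]
  have rc : om r c = 0 := by simp [hr, hac, ← hβ, CharTwo.add_self_eq_zero]
  have ar : om a r = 0 := om_comm a r ▸ ra
  have cr : om c r = 0 := om_comm c r ▸ rc
  have s1 : ∀ {s t l : F}, s ∈ k → t ∈ k → l ∈ k → s * γ + t * β ≠ 0 → Y (s • a + t • c + l • r) :=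
    fun {s t l} hs ht hl h0 => by
      have := h.add _ _ (h.plane ha hc (by simp [hac]) (add_mem hs (mul_mem hl kβ)) (add_mem ht (mul_mem hl kγ)))
        (h.smul 1 (one_mem _) _ (h.smul l hl _ hb))
      by_cases h3 : l = 0
      · simpa [h3] using h.plane ha hc (by simp [hac]) hs ht
      convert this (by simp [om_comm a b, om_comm c b, ← hβ, ← hγ, h3]; grind) using 1
      rw [hr]; module
  have s2 : ∀ {s t l : F}, s ∈ k → t ∈ k → l ∈ k → ¬ (s = 0 ∧ t = 0) → Y (s • a + t • c + l • r) :=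
    fun {s t l} hs ht hl h0 => by
      by_cases h3 : s * γ + t * β = 0
      · by_cases h4 : γ = 0
        · convert h.add _ _ (s1 hs (add_mem ht (one_mem _)) hl (by grind)) hc (by simp [hac, rc]; grind) using 1
          ext i; simp; grind
        · convert h.add _ _ (s1 (add_mem hs (one_mem _)) ht hl (by grind)) ha (by simp [hca, ra]; grind) using 1
          ext i; simp; grind
      · exact s1 hs ht hl h3
  obtain ⟨d, hd⟩ := not_forall.1 (mt (h.span r) (hr ▸ h1))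
  obtain ⟨hd, rd⟩ := Classical.not_imp.1 hd
  have krd : om r d ∈ k := by
    rw [hr]
    simp only [om_add_left, om_smul_left]
    exact add_mem (add_mem (h.mem _ _ hb hd) (mul_mem kβ (h.mem _ _ ha hd))) (mul_mem kγ (h.mem _ _ hc hd))
  have yr : Y r := by
    obtain ⟨l, hl, h3⟩ : ∃ l ∈ k, om c d + l * om r d ≠ 0 := by
      by_cases h3 : om c d = 0
      exacts [⟨1, one_mem _, by simpa [h3] using rd⟩, ⟨0, zero_mem _, by simpa using h3⟩]
    obtain ⟨s, hs, s0, h4⟩ : ∃ s ∈ k, s ≠ 0 ∧ om r d + s * (om c d + l * om r d) ≠ 0 := by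
      obtain ⟨s, hs, s0, s1⟩ := h.big
      by_cases h4 : om r d + 1 * (om c d + l * om r d) = 0
      exacts [⟨s, hs, s0, by grind⟩, ⟨1, one_mem _, one_ne_zero, h4⟩]
    have y1 := s2 (zero_mem _) hs (add_mem (one_mem _) (mul_mem hs hl)) (by tauto)
    have y2 := h.add _ _ (s2 (zero_mem _) hs (mul_mem hs hl) (by tauto)) hd (by simp; grind)
    have y3 := h.add _ _ (h.add _ _ y1 y2 (by simp [rc, cr]; grind)) hd (by simp; grind)
    convert y3 using 1
    ext i; simp; grind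
  have s3 : ∀ {s t l : F}, s ∈ k → t ∈ k → l ∈ k → Y (s • a + t • c + l • r) := fun {s t l} hs ht hl => by
    by_cases h0 : s = 0 ∧ t = 0
    · simpa [h0.1, h0.2] using h.smul l hl _ yr
    · exact s2 hs ht hl h0
  have s4 : ∀ {s t l m : F}, s ∈ k → t ∈ k → l ∈ k → m ∈ k → Y (s • a + t • c + l • r + m • d) :=
    fun {s t l m} hs ht hl hm => by
      by_cases h0 : m = 0
      · simpa [h0] using s3 hs ht hl
      by_cases h3 : om (s • a + t • c + l • r) d = 0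
      · convert h.add _ _ (s3 hs ht (add_mem hl (one_mem _))) (h.plane yr hd rd (one_mem _) hm) (by
          simp only [om_add_left, om_smul_left] at h3
          simp [ar, cr]; grind) using 1
        ext i; simp; grind
      · exact h.add _ _ (s3 hs ht hl) (h.smul m hm _ hd) (by rw [om_smul_right]; exact mul_ne_zero h0 h3)
  have kdc := h.mem _ _ hd hc
  have kda := h.mem _ _ hd ha
  refine ⟨cols a r ((om r d)⁻¹ • (d + om d c • a + om d a • c)) c, sp_cols ar ?_ hac ?_ rc ?_, fun v hv => ?_⟩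
  · simp [hac, om_comm a d, CharTwo.add_self_eq_zero]
  · simp [ra, rc, rd]
  · simp [hac, CharTwo.add_self_eq_zero]
  · have k2 := mul_mem (hv 2) (inv_mem krd)
    convert s4 (add_mem (hv 0) (mul_mem k2 kdc)) (add_mem (hv 3) (mul_mem k2 kda)) (hv 1) k2 using 1
    rw [cols_mv]; module

end YS

/-- the subgroup preserving a property of vectors -/
def stab (ρ : X →* M4 F) (P : V4 F → Prop) : Subgroup X where
  carrier := {x | ∀ v, P (ρ x *ᵥ v) ↔ P v}
  mul_mem' {x y} hx hy v := by rw [mv_mul, hx, hy]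
  one_mem' v := by rw [map_one, one_mulVec]
  inv_mem' {x} hx v := by rw [← hx, mv_inv']

theorem gen_top [IsSimpleGroup X] (hx : x ≠ 1) {K : Subgroup X} (H : ∀ g, g * x * g⁻¹ ∈ K) : K = ⊤ := by
  rw [eq_top_iff, ← (normalClosure_normal (s := {x})).eq_bot_or_eq_top.resolve_left fun e =>
    hx (mem_bot.1 (e ▸ subset_normalClosure rfl)), normalClosure, closure_le]
  intro y hy
  obtain ⟨_, rfl, h⟩ := Group.mem_conjugatesOfSet_iff.1 hy
  obtain ⟨g, rfl⟩ := isConj_iff.1 h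
  exact H g

theorem ne_one_of_tv (e : ρ x = tv a) (ha : a ≠ 0) : x ≠ 1 := fun k =>
  ha (tv_inj (by rw [← e, k, map_one, tv_zero]))

/-- `SL₂` on the first and last coordinate -/
def out (F : Type*) [Field F] : SL(2, F) →* M4 F where
  toFun m := !![m.1 0 0, 0, 0, m.1 0 1; 0, 1, 0, 0; 0, 0, 1, 0; m.1 1 0, 0, 0, m.1 1 1]
  map_one' := by
    ext i j
    fin_cases i <;> fin_cases j <;> simp
  map_mul' m n := by
    ext i j
    fin_cases i <;> fin_cases j <;> simp [mul_apply, Fin.sum_univ_four, Fin.sum_univ_two]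

theorem out_up (s : F) : out F (up (s ^ 2)) = tv (s • e 0) := by
  ext i j
  fin_cases i <;> fin_cases j <;> simp [out, up, H29.mkSL, tv, e, Fin.rev, sq]

theorem out_lo (s : F) : out F (lo (s ^ 2)) = tv (s • e 3) := by
  ext i j
  fin_cases i <;> fin_cases j <;> simp [out, lo, H29.mkSL, tv, e, Fin.rev, sq]

theorem not_three (h : (3 : F) = 0) : False := by grind

variable [Finite F]

theorem sq_mem {k : Subfield F} {s : F} : s ^ 2 ∈ k ↔ s ∈ k :=
  ⟨mem_of_two_mul_of_sq (by simp [two_eq]), fun h => pow_mem h 2⟩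

theorem pair {l : F} (l0 : l ≠ 0) (l1 : l ≠ 1) (t1 : TL ρ a) (t2 : TL ρ (l • a)) (t3 : TL ρ b)
    (h0 : om a b ≠ 0) : ∃ k : Subfield F, (∀ s, TL ρ (s • a) ↔ s ∈ k) ∧ om a b ∈ k := by
  obtain ⟨c, hc⟩ : ∃ c, c = om a b := ⟨_, rfl⟩
  rw [← hc] at h0 ⊢
  have h1 : om a (c⁻¹ • b) = 1 := by rw [om_smul_right, ← hc, inv_mul_cancel₀ h0]
  obtain ⟨p, q, a1, a2, a3, a4, a5⟩ := exists_perp h1
  have hB := sp_cols a1 a2 h1 a3 a4 a5
  let M : Subgroup SL(2, F) := (((cj hB ρ).comp (MonoidHom.fst X SL(2, F))).eqLocus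
    ((out F).comp (MonoidHom.snd X SL(2, F)))).map (MonoidHom.snd _ _)
  have hM : ∀ m, m ∈ M ↔ ∃ x, cj hB ρ x = out F m := fun m =>
    ⟨by rintro ⟨⟨x, m⟩, h, rfl⟩; exact ⟨x, h⟩, fun ⟨x, h⟩ => ⟨(x, m), h, rfl⟩⟩
  have k1 : ∀ s, up (s ^ 2) ∈ M ↔ TL ρ (s • a) := fun s => by
    rw [hM, out_up]
    exact (tl_cj hB).trans (by rw [mulVec_smul, cols_e0])
  have k2 : lo (c ^ 2) ∈ M := by
    rw [hM, out_lo]
    exact (tl_cj hB).2 (by rwa [mulVec_smul, cols_e3, smul_smul, mul_inv_cancel₀ h0, one_smul])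
  rcases lemD M (pow_ne_zero 2 h0) (by simpa using (k1 1).2 (by simpa using t1)) k2 with
    ⟨-, h2, -⟩ | ⟨k, -, h2, -, h3⟩
  · have := h2 _ ((k1 l).2 t2)
    grind
  · exact ⟨k, fun s => by rw [← k1, h2, sq_mem], sq_mem.1 (h3.resolve_right fun e => not_three e.1)⟩

theorem R4.big [IsSimpleGroup X] (h : R4 ρ) (hp : NoPt ρ) (hb : BigL ρ) :
    ∃ (k : Subfield F) (B : M4 F) (hB : Sp B), (∃ s ∈ k, s ≠ 0 ∧ s ≠ 1) ∧
      (∀ v : V4 F, (∀ i, v i ∈ k) → TL (S4.cj hB ρ) v) ∧ ∀ x i j, S4.cj hB ρ x i j ∈ k := by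
  obtain ⟨a, l, a0, l0, l1, t1, t2⟩ := hb
  obtain ⟨x0, e0⟩ := id t1
  have x1 := ne_one_of_tv e0 a0
  have span : ∀ w, (∀ x, om w (ρ x *ᵥ a) = 0) → w = 0 := fun w H => hp w fun x => by
    have : stab ρ (· = w) = ⊤ := gen_top x1 fun g v => by
      rw [h.conj_tv e0, tv_mv]
      refine ⟨fun k => ?_, fun k => by simp [k, H]⟩
      have := congrArg (om · (ρ g *ᵥ a)) k
      simp only [om_add_left, om_smul_left, om_self, H, mul_zero, add_zero] at this
      simpa [this] using k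
    exact ⟨1, by rw [one_smul]; exact (this.ge (mem_top x) w).2 rfl⟩
  obtain ⟨x, hx⟩ := not_forall.1 (mt (span a) a0)
  obtain ⟨k, k1, -⟩ := pair l0 l1 t1 t2 (t1.mv h x) hx
  have k2 : ∀ x, om a (ρ x *ᵥ a) ∈ k := fun x => by
    by_cases h0 : om a (ρ x *ᵥ a) = 0
    · exact h0 ▸ zero_mem _
    · obtain ⟨k', k3, k4⟩ := pair l0 l1 t1 t2 (t1.mv h x) h0
      exact (k1 _).1 ((k3 _).2 k4)
  let Y : V4 F → Prop := fun y => ∃ x, ∃ s ∈ k, y = s • ρ x *ᵥ a
  have yt : ∀ y, Y y → TL ρ y := by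
    rintro _ ⟨x, s, hs, rfl⟩
    exact mulVec_smul (ρ x) s a ▸ ((k1 s).2 hs).mv h x
  have ym : ∀ x y, Y y → Y (ρ x *ᵥ y) := by
    rintro x _ ⟨x', s, hs, rfl⟩
    exact ⟨x * x', s, hs, by rw [mulVec_smul, mv_mul]⟩
  have ys : ∀ s ∈ k, ∀ y, Y y → Y (s • y) := by
    rintro s hs _ ⟨x, s', hs', rfl⟩
    exact ⟨x, _, mul_mem hs hs', smul_smul _ _ _⟩
  have yo : ∀ y y', Y y → Y y' → om y y' ∈ k := by
    rintro _ _ ⟨x, s, hs, rfl⟩ ⟨x', s', hs', rfl⟩
    rw [om_smul_left, om_smul_right, h.om_mv, ← mv_mul]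
    exact mul_mem hs (mul_mem hs' (k2 _))
  have ya : ∀ x, Y (ρ x *ᵥ a) := fun x => ⟨x, 1, one_mem _, (one_smul _ _).symm⟩
  have big : ∃ s ∈ k, s ≠ 0 ∧ s ≠ 1 := ⟨l, (k1 l).1 t2, l0, l1⟩
  have hY : YS Y k := ⟨ys, yo, fun y y' hy hy' h0 => by
    obtain ⟨m, hm⟩ := exists_sq (om y y')⁻¹
    obtain ⟨x, hx⟩ := yt _ (ys m (sq_mem.1 (hm ▸ inv_mem (yo _ _ hy hy'))) _ hy)
    convert ym x _ hy' using 1
    rw [hx, tv_mv, om_smul_right, smul_smul, om_comm y', show m * om y y' * m = m ^ 2 * om y y' by ring, hm,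
      inv_mul_cancel₀ h0, one_smul, add_comm], big, fun w H => span w fun x => H _ (ya x)⟩
  obtain ⟨c, hc⟩ : ∃ c, c = (om a (ρ x *ᵥ a))⁻¹ • ρ x *ᵥ a := ⟨_, rfl⟩
  have yc : Y c := hc ▸ ys _ (inv_mem (k2 x)) _ (ya x)
  have hac : om a c = 1 := by rw [hc, om_smul_right, inv_mul_cancel₀ hx]
  have hca : om c a = 1 := om_comm a c ▸ hac
  obtain ⟨b, hb, b1, b2⟩ : ∃ b, Y b ∧ b + om b c • a + om b a • c ≠ 0 ∧ ¬ (om b a = 0 ∧ om b c = 0) := by
    by_contra H
    have : stab ρ (fun v => v + om v c • a + om v a • c = 0) = ⊤ := gen_top x1 fun g v => by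
      rw [h.conj_tv e0, tv_mv]
      obtain ⟨y, hy, e⟩ : ∃ y, Y y ∧ ρ g *ᵥ a = y := ⟨_, ya g, rfl⟩
      rw [e]
      beta_reduce
      by_cases h1 : y + om y c • a + om y a • c = 0
      · have : v + om v y • y + om (v + om v y • y) c • a + om (v + om v y • y) a • c =
            v + om v c • a + om v a • c + om v y • (y + om y c • a + om y a • c) := by
          simp only [om_add_left, om_smul_left]; module
        rw [this, h1, smul_zero, add_zero]
      · obtain ⟨h2, h3⟩ : om y a = 0 ∧ om y c = 0 := by_contra fun h2 => H ⟨y, hy, h1, h2⟩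
        simp only [om_add_left, om_smul_left, h2, h3, mul_zero, add_zero]
        constructor <;> intro k <;> have := congrArg (om · y) k <;>
          simp only [om_add_left, om_smul_left, om_comm a y, om_comm c y, h2, h3, om_self, mul_zero, add_zero,
            om_zero_left] at this <;> simpa [this] using k
    obtain ⟨p, q, a1, -, a3, a4, -⟩ := exists_perp hac
    rw [span p fun x => ?_] at a3
    · simp at a3
    have := congrArg (om p) ((this.ge (mem_top x) a).2 (by simp [hac]))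
    simpa [om_comm p a, a1, a4] using this
  obtain ⟨B, hB, H⟩ := hY.all (by simpa using ya 1) yc hac hb b1 b2
  have he : ∀ i, Y (B *ᵥ e i) := fun i => H _ fun j => by
    rw [e, Pi.single_apply]; split_ifs; exacts [one_mem _, zero_mem _]
  refine ⟨k, B, hB, big, fun v hv => (tl_cj hB).2 (yt _ (H v hv)), fun x i j => ?_⟩
  rw [← mulVec_e (S4.cj hB ρ x), ← om_e (S4.cj hB ρ x *ᵥ e j), ← hB, cj_mv]
  exact yo _ _ (ym x _ (he j)) (he _)

theorem R4.bigS [IsSimpleGroup X] (h : R4 ρ) (hp : NoPt ρ) (hb : BigL ρ) : BigS ρ := by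
  obtain ⟨k, B, hB, ⟨s, hs, s0, s1⟩, H, -⟩ := h.big hp hb
  have key : ∀ l ∈ k, ∃ x, S4.cj hB ρ x = sh (l • e 0) (e 1) := fun l hl => by
    have m : ∀ (t t' : F), t ∈ k → t' ∈ k → TL (S4.cj hB ρ) (t • e 0 + t' • e 1) := fun t t' h1 h2 => H _ fun i => by
      fin_cases i <;> simp [e, h1, h2]
    obtain ⟨x, hx⟩ := m l 0 hl (zero_mem _)
    obtain ⟨y, hy⟩ := m 0 1 (zero_mem _) (one_mem _)
    obtain ⟨z, hz⟩ := m l 1 hl (one_mem _)
    exact ⟨x * y * z, by rw [map_mul, map_mul, hx, hy, hz, sh_eq (by simp [om, e])]; simp⟩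
  refine .of_cj hB ⟨e 0, e 1, s, by simp [om, e], fun k => by simpa [pl, e] using congrFun k 0, s0, s1,
    by simpa using key 1 (one_mem _), key s hs⟩

theorem R4.all_tv [IsSimpleGroup X] (h : R4 ρ) (hp : NoPt ρ) (hb : BigL ρ)
    (hT : ∀ k : Subfield F, (∀ x, (ρ x).trace ∈ k) → k = ⊤) (v : V4 F) : TL ρ v := by
  obtain ⟨k, B, hB, -, H, H'⟩ := h.big hp hb
  obtain rfl := hT k fun x => cj_trace (ρ := ρ) hB x ▸ sum_mem fun i _ => H' x i i
  exact hB.mv_adj v ▸ (tl_cj hB).1 (H _ fun _ => trivial)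

theorem R4.bigL_of_gam [IsSimpleGroup X] (h : R4 ρ) (hp : NoPt h.gam) (hb : BigL h.gam) : BigL ρ :=
  h.bigL_gam_gam (h.gam_r4.bigL_gam.2 (h.gam_r4.bigS hp hb))

end H98.S4
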