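import Mathlib
import Cfsg.Agent.Lib.Sp4e.Big
import Cfsg.Agent.S0111

/-!
# A transvection whose centralizer has a component: Thompson transfer
-/

set_option autoImplicit false
set_option linter.unusedSectionVars false

namespace H98.S4

open Matrix Subgroup

variable {F : Type*} [Field F] [CharP F 2] {a : V4 F} {g : M4 F}
  {X : Type*} [Group X] {ρ : X →* M4 F} {x y z : X}

theorem UA_mv (u b c : F) (v : V4 F) :
    U 0 u b c *ᵥ v = v + (c * om v (e 0) + b * om v (e 1)) • e 0 + (b * om v (e 0) + u * om v (e 1)) • e 1 := by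
  ext i
  fin_cases i <;> simp [U, om, e, mv_apply] <;> ring

theorem conjA (hg : Sp g) {α β γ δ : F} (h0 : g *ᵥ e 0 = α • e 0 + β • e 1) (h1 : g *ᵥ e 1 = γ • e 0 + δ • e 1)
    (u b c : F) : g * U 0 u b c =
      U 0 (β ^ 2 * c + δ ^ 2 * u) (α * β * c + (α * δ + β * γ) * b + γ * δ * u) (α ^ 2 * c + γ ^ 2 * u) * g :=
  ext_mv fun v => by
    rw [← mulVec_mulVec, ← mulVec_mulVec, UA_mv, UA_mv, mulVec_add, mulVec_add, mulVec_smul, mulVec_smul,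
      ← hg v, ← hg v, h0, h1]
    ext i
    simp only [om_add_right, om_smul_right, Pi.add_apply, Pi.smul_apply, smul_eq_mul]
    grind

theorem R4.conjA (h : R4 ρ) {α β γ δ u b c : F} (h0 : ρ x *ᵥ e 0 = α • e 0 + β • e 1)
    (h1 : ρ x *ᵥ e 1 = γ • e 0 + δ • e 1) (hy : ρ y = U 0 u b c) : ρ (x * y * x⁻¹) =
      U 0 (β ^ 2 * c + δ ^ 2 * u) (α * β * c + (α * δ + β * γ) * b + γ * δ * u) (α ^ 2 * c + γ ^ 2 * u) := by
  rw [map_mul, map_mul, hy, S4.conjA (h.sp x) h0 h1, mul_assoc, ← map_mul, mul_inv_cancel, map_one, mul_one]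

theorem tv_U (s t : F) : tv (s • e 0 + t • e 1) = U 0 (t ^ 2) (s * t) (s ^ 2) := by
  ext i j
  fin_cases i <;> fin_cases j <;> simp [U, tv, e, Fin.rev, sq, mul_comm]

theorem eq_of_tv {t u b c : F} (h : tv a = U t u b c) : t = 0 ∧ a = a 0 • e 0 + a 1 • e 1 := by
  have h1 := congrFun (congrFun h 3) 0
  have h2 := congrFun (congrFun h 2) 1
  have h3 := congrFun (congrFun h 0) 1
  simp [U, tv, Fin.rev] at h1 h2 h3
  refine ⟨by rw [← h3, h2, mul_zero], ?_⟩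
  ext i
  fin_cases i <;> simp [e, h1, h2]

theorem U_pow (t u b c : F) : U t u b c ^ 4 = 1 :=
  by rw [show U t u b c ^ 4 = U t u b c * U t u b c * (U t u b c * U t u b c) by noncomm_ring, U_sq, U_sq]
     simp [U_zero]

/-- the elements acting unitriangularly -/
def uni (ρ : X →* M4 F) : Subgroup X where
  carrier := {x | ∃ t u b c, ρ x = U t u b c}
  mul_mem' := by
    rintro x y ⟨t, u, b, c, h⟩ ⟨t', u', b', c', h'⟩
    exact ⟨_, _, _, _, by rw [map_mul, h, h', U_mul]⟩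
  one_mem' := ⟨0, 0, 0, 0, by rw [map_one, U_zero]⟩
  inv_mem' := by
    rintro x ⟨t, u, b, c, h⟩
    refine ⟨t, u, b + t * u, c, ?_⟩
    rw [← mul_one (ρ _), ← U_pow t u b c, pow_succ', ← mul_assoc]
    nth_rw 1 [← h]
    rw [← map_mul, inv_mul_cancel, map_one, one_mul, pow_three, U_sq, U_mul, U_inj]
    grind

theorem R4.uni_two (h : R4 ρ) : IsPGroup 2 (uni ρ) := by
  rintro ⟨x, t, u, b, c, e⟩
  exact ⟨2, Subtype.ext (h.inj (by change ρ (x ^ 4) = ρ 1; rw [map_pow, map_one, e, U_pow]))⟩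

theorem eig_one {s : F} {n : ℕ} (hx : x ^ 2 ^ n = 1) (ha : a ≠ 0) (e : ρ x *ᵥ a = s • a) : s = 1 := by
  have : ∀ m : ℕ, ρ (x ^ m) *ᵥ a = s ^ m • a := fun m => by
    induction m with
    | zero => simp
    | succ m ih => rw [pow_succ, mv_mul, e, mulVec_smul, ih, smul_smul, pow_succ']
  have h1 := this (2 ^ n)
  rw [hx, map_one, one_mulVec] at h1
  have h2 : s ^ 2 ^ n = 1 := by
    by_contra h
    exact ha ((smul_eq_zero_iff_right (sub_ne_zero.2 h)).1 (by rw [sub_smul, ← h1, one_smul, sub_self]))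
  exact sub_eq_zero.1 (pow_eq_zero_iff (pow_ne_zero n two_ne_zero) |>.1 (by rw [sub_pow_char_pow, h2]; simp))

theorem e_ne (i : Fin 4) : (e i : V4 F) ≠ 0 := fun h => by simpa [e] using congrFun h i

variable [Finite F] [Finite X]

theorem R4.comp (h : R4 ρ) (hb : ¬ BigL ρ) (hi : ∀ M : Subgroup X, M.index ≠ 2) {k : Subfield F} {c0 : F}
    (h0 : c0 ≠ 0) {x0 : X} (e0 : ρ x0 = U 0 c0 0 0) (hB : ∀ x u b, ρ x = U 0 u b 0 → b = 0)
    (hc : ∀ x u b c, ρ x = U 0 u b c → c ∈ k ∧ (u = 0 ∨ u = c0))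
    (ex : ∀ c ∈ k, ∃ x u b, ρ x = U 0 u b c)
    (tor : ∀ μ ∈ k, μ ≠ 0 → ∃ (x : X) (p : F), ρ x *ᵥ e 1 = e 1 ∧ ρ x *ᵥ e 0 = μ • e 0 + p • e 1)
    (big : ∃ s ∈ k, s ≠ 0 ∧ s ≠ 1) : False := by
  obtain ⟨s, hs, s0, s1⟩ := big
  obtain ⟨r, rfl⟩ := exists_sq c0
  have r0 : r ≠ 0 := by rintro rfl; simp at h0
  have e0' : ρ x0 = tv (r • e 1) := by simpa [e0] using (tv_U 0 r).symm
  have ex' : ∀ c ∈ k, ∃ x b, ρ x = U 0 0 b c := fun c hc' => by
    obtain ⟨x, u, b, e⟩ := ex c hc'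
    rcases (hc _ _ _ _ e).2 with rfl | rfl
    · exact ⟨x, b, e⟩
    · exact ⟨x * x0, b, by rw [map_mul, e, e0, U_mul, U_inj]; grind⟩
  have fix : ∀ x (α β γ : F), ρ x *ᵥ e 0 = α • e 0 + β • e 1 → ρ x *ᵥ e 1 = γ • e 0 + (1 : F) • e 1 → β = 0 :=
    fun x α β γ a0 a1 => by
      obtain ⟨y, b, e⟩ := ex' 1 (one_mem _)
      obtain ⟨y', b', e'⟩ := ex' s hs
      have k1 := (hc _ _ _ _ (h.conjA a0 a1 e)).2
      have k2 := (hc _ _ _ _ (h.conjA a0 a1 e')).2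
      grind
  have tor' : ∀ μ ∈ k, μ ≠ 0 → ∀ y u b c, ρ y = U 0 u b c → ∃ x, ρ x = U 0 u (μ * b) (μ ^ 2 * c) :=
    fun μ hμ μ0 y u b c e => by
      obtain ⟨x, p, a1, a0⟩ := tor μ hμ μ0
      have a1' : ρ x *ᵥ S4.e 1 = (0 : F) • S4.e 0 + (1 : F) • S4.e 1 := by simpa using a1
      obtain rfl := fix _ _ _ _ a0 a1'
      exact ⟨_, by rw [h.conjA a0 a1' e, U_inj]; grind⟩
  have nl : ∀ x c, ρ x = U 0 0 0 c → c = 0 := fun x c e => by_contra fun c0 => by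
    obtain ⟨y, e'⟩ := tor' s hs s0 _ _ _ _ e
    obtain ⟨c, rfl⟩ := exists_sq c
    refine hb ⟨c • S4.e 0, s, smul_ne_zero (by rintro rfl; simp at c0) (e_ne 0), s0, s1,
      ⟨x, by simpa [e] using (tv_U c 0).symm⟩, y, ?_⟩
    simpa [e', smul_smul, mul_pow] using (tv_U (s * c) 0).symm
  obtain ⟨y1, b1, e1⟩ := ex' 1 (one_mem _)
  have b0 : b1 ≠ 0 := by rintro rfl; exact one_ne_zero (nl _ _ e1)
  have lin : ∀ y u b c, ρ y = U 0 u b c → b ^ 2 = b1 ^ 2 * c := fun y u b c e => by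
    obtain ⟨c, rfl⟩ := exists_sq c
    by_cases c0 : c = 0
    · rw [hB y u b (by simpa [c0] using e), c0]; simp
    obtain ⟨x, e'⟩ := tor' c (sq_mem.1 (hc _ _ _ _ e).1) c0 _ _ _ _ e1
    have := hB (y * x) u (b + c * b1) (by rw [map_mul, e, e', U_mul, U_inj]; grind)
    grind
  have long : ∀ g, g * x0 * g⁻¹ ∈ uni ρ → ∃ ν : F, ρ g *ᵥ e 1 = ν • e 0 + (1 : F) • e 1 := by
    rintro g ⟨t, u, b, c, e⟩
    have k := h.conj_tv e0' g
    obtain ⟨a, ha⟩ : ∃ a, a = ρ g *ᵥ r • S4.e 1 := ⟨_, rfl⟩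
    rw [← ha] at k
    have k1 := (eq_of_tv (k.symm.trans e)).2
    rw [k1, tv_U] at k
    rcases (hc _ _ _ _ k).2 with k2 | k2
    · have k3 : a 1 = 0 := pow_eq_zero_iff two_ne_zero |>.1 k2
      have k4 : a 0 = 0 := pow_eq_zero_iff two_ne_zero |>.1 (nl (g * x0 * g⁻¹) _ (by simpa [k3] using k))
      refine absurd (ha ▸ k1) ?_
      simpa [k3, k4, ← ha] using ha ▸ (h.sp g).ne (smul_ne_zero r0 (e_ne 1))
    · have k3 : a 1 = r := CharTwo.sq_injective k2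
      refine ⟨r⁻¹ * a 0, smul_right_injective _ r0 ?_⟩
      simp only [← mulVec_smul, ← ha, smul_add, smul_smul, mul_one, mul_inv_cancel_left₀ r0]
      rw [← k3, ← k1]
  obtain ⟨S, hS⟩ := h.uni_two.exists_le_sylow
  have hN : (uni ρ).subgroupOf S = ⊤ := by
    have := S.isPGroup'.isNilpotent
    refine (normalizerCondition_iff_only_full_group_self_normalizing.1 Group.normalizerCondition_of_isNilpotent) _
      (le_antisymm (fun g hg => ?_) le_normalizer)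
    have hn : ∀ {g : S}, g ∈ normalizer ((uni ρ).subgroupOf S : Set S) → ∀ y ∈ uni ρ, g * y * (g : X)⁻¹ ∈ uni ρ :=
      fun {g} hg y hy => (mem_normalizer_iff.1 hg ⟨y, hS hy⟩).1 hy
    have x0u : x0 ∈ uni ρ := ⟨_, _, _, _, e0⟩
    obtain ⟨ν, a1⟩ := long g (hn hg _ x0u)
    obtain ⟨ν', a1'⟩ := long _ (by simpa using hn (inv_mem hg) _ x0u : (g : X)⁻¹ * x0 * (g : X)⁻¹⁻¹ ∈ uni ρ)
    obtain ⟨t, u, b, c, e⟩ := hn (inv_mem hg) y1 ⟨_, _, _, _, e1⟩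
    have f0 : ρ y1 *ᵥ (ρ g *ᵥ S4.e 0) = ρ g *ᵥ S4.e 0 := by
      have : ρ (((g⁻¹ : S) : X) * y1 * ((g⁻¹ : S) : X)⁻¹) *ᵥ S4.e 0 = S4.e 0 := by
        rw [e]; ext i; fin_cases i <;> simp [U, S4.e]
      rw [← mv_mul, show y1 * g = g * (((g⁻¹ : S) : X) * y1 * ((g⁻¹ : S) : X)⁻¹) by simp [mul_assoc], mv_mul, this]
    obtain ⟨v, hv⟩ : ∃ v, v = ρ g *ᵥ S4.e 0 := ⟨_, rfl⟩
    rw [← hv, e1] at f0
    have f1 := congrFun f0 0
    have f2 := congrFun f0 1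
    simp [U, mv_apply, b0] at f1 f2
    have a0 : ρ g *ᵥ S4.e 0 = v 0 • S4.e 0 + v 1 • S4.e 1 := by
      rw [← hv]; ext i; fin_cases i <;> simp [S4.e] <;> grind
    rw [fix _ _ _ _ a0 a1, zero_smul, add_zero] at a0
    obtain ⟨n, hn⟩ := S.isPGroup' g
    rw [eig_one (n := n) (congrArg Subtype.val hn) (e_ne 0) a0, one_smul] at a0
    exact ⟨_, _, _, _, eq_U (h.sp g) a0 (by rw [a1, one_smul, add_comm])⟩
  have hS' : (S : Subgroup X) ≤ uni ρ := subgroupOf_eq_top.1 hN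
  have val : ∀ x t u b c, ρ x = U t u b c → u = 0 ∨ u = r ^ 2 := fun x t u b c e => by
    by_cases t0 : t = 0
    · exact (hc x u b c (t0 ▸ e)).2
    have k1 := lin (x * x) _ _ _ (by rw [map_mul, e, U_sq])
    have k2 := lin _ _ _ _ (h.conjA (x := x) (α := 1) (β := 0) (γ := t) (δ := 1)
      (by rw [e]; ext i; fin_cases i <;> simp [U, S4.e]) (by rw [e]; ext i; fin_cases i <;> simp [U, S4.e]) e0)
    grind
  let M : Subgroup X :=
    { carrier := {x | ∃ t b c, ρ x = U t 0 b c}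
      mul_mem' := by
        rintro x y ⟨t, b, c, h⟩ ⟨t', b', c', h'⟩
        exact ⟨_, _, _, by rw [map_mul, h, h', U_mul, add_zero]⟩
      one_mem' := ⟨0, 0, 0, by rw [map_one, U_zero]⟩
      inv_mem' := by
        rintro x ⟨t, b, c, e⟩
        refine ⟨t, b, c, ?_⟩
        rw [inv_eq_of_mul_eq_one_right (h.inj (by rw [map_mul, e, U_sq, map_one]; simp [U_zero]) : x * x = 1), e] }
  have xM : x0 ∉ M := fun ⟨_, _, _, e⟩ => h0 (U_inj.1 (e0.symm.trans e)).2.1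
  have Mu : M ≤ uni ρ := fun _ ⟨_, _, _, e⟩ => ⟨_, _, _, _, e⟩
  rcases Cfsg.Agent.S0111.result S M (Mu.trans hS) (index_eq_two_iff.2 ⟨⟨x0, hS ⟨_, _, _, _, e0⟩⟩, fun y => by
      obtain ⟨t, u, b, c, e⟩ := hS' y.2
      have k1 : (y : X) ∈ M ↔ u = 0 := ⟨fun ⟨_, _, _, e'⟩ => (U_inj.1 (e.symm.trans e')).2.1, fun k => ⟨_, _, _, k ▸ e⟩⟩
      have e2 := map_mul ρ (y : X) x0
      rw [e, e0, U_mul] at e2
      have k2 : (y : X) * x0 ∈ M ↔ u + r ^ 2 = 0 :=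
        ⟨fun ⟨_, _, _, e'⟩ => (U_inj.1 (e2.symm.trans e')).2.1, fun k => ⟨_, _, _, k ▸ e2⟩⟩
      change Xor ((y : X) * x0 ∈ M) ((y : X) ∈ M)
      rw [k1, k2]
      have := val _ _ _ _ _ e
      grind⟩) x0 (orderOf_eq_prime (h.inj (by rw [sq, map_mul, e0, U_sq, map_one]; simp [U_zero]))
      fun e => xM (e ▸ one_mem _)) (hS ⟨_, _, _, _, e0⟩) xM with ⟨N, -, h1, -⟩ | ⟨g, t, b, c, e⟩
  · exact hi N h1
  · obtain ⟨ν, a1⟩ := long g ⟨_, _, _, _, e⟩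
    rw [h.conj_tv e0', mulVec_smul, a1, smul_add, smul_smul, smul_smul, tv_U, U_inj] at e
    exact h0 (by simpa using e.2.1)

end H98.S4
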